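import Cfsg.Agent.J4V.BN
import Cfsg.Agent.Cl.UStd
import Cfsg.Agent.Cl.SimpleBasic

/-!
# The Bruhat presentation holds in `PSU₃(11)` and presents it
-/

set_option autoImplicit false
set_option maxRecDepth 100000

namespace Cfsg.Agent.J4V

open Cfsg.Agent.M24 Subgroup Matrix

instance fact11 : Fact (Nat.Prime 11) := ⟨by norm_num⟩
instance factF : Fact (∀ r : ZMod 11, r ^ 2 ≠ -1 + 0 * r) := ⟨by decide⟩
abbrev F121 : Type := QuadraticAlgebra (ZMod 11) (-1) 0
instance finF : Fintype F121 := Fintype.ofEquiv _ (QuadraticAlgebra.equivProd (-1 : ZMod 11) 0).symm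
theorem card_F : Fintype.card F121 = 121 := by rw [Fintype.ofEquiv_card]; simp

def dg (a i : ℕ) : ℕ := (a >>> (4 * i)) % 16
def re3 (a b i j : ℕ) : ℕ := (dg a (6 * i) * dg b (2 * j) + 10 * (dg a (6 * i + 1) * dg b (2 * j + 1)) +
  (dg a (6 * i + 2) * dg b (6 + 2 * j) + 10 * (dg a (6 * i + 3) * dg b (6 + 2 * j + 1))) +
  (dg a (6 * i + 4) * dg b (12 + 2 * j) + 10 * (dg a (6 * i + 5) * dg b (12 + 2 * j + 1)))) % 11
def im3 (a b i j : ℕ) : ℕ := (dg a (6 * i) * dg b (2 * j + 1) + dg a (6 * i + 1) * dg b (2 * j) +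
  (dg a (6 * i + 2) * dg b (6 + 2 * j + 1) + dg a (6 * i + 3) * dg b (6 + 2 * j)) +
  (dg a (6 * i + 4) * dg b (12 + 2 * j + 1) + dg a (6 * i + 5) * dg b (12 + 2 * j))) % 11
def pk : List ℕ → ℕ
  | [] => 0
  | x :: l => x + 16 * pk l
def mu3 (a b : ℕ) : ℕ := pk [re3 a b 0 0, im3 a b 0 0, re3 a b 0 1, im3 a b 0 1, re3 a b 0 2, im3 a b 0 2,
  re3 a b 1 0, im3 a b 1 0, re3 a b 1 1, im3 a b 1 1, re3 a b 1 2, im3 a b 1 2,
  re3 a b 2 0, im3 a b 2 0, re3 a b 2 1, im3 a b 2 1, re3 a b 2 2, im3 a b 2 2]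
def on3 : ℕ := 0x010000000100000001
def dec (a : ℕ) : Matrix (Fin 3) (Fin 3) F121 := of fun i j => ⟨dg a (6 * i + 2 * j), dg a (6 * i + 2 * j + 1)⟩

theorem dg_pk (l : List ℕ) (h : ∀ x ∈ l, x < 16) (i : ℕ) : dg (pk l) i = l.getD i 0 := by
  induction l generalizing i with
  | nil => simp [dg, pk]
  | cons x l ih =>
    have h1 := h x (by simp)
    cases i with
    | zero => simp [dg, pk]; omega
    | succ i =>
      rw [List.getD_cons_succ, ← ih fun y hy => h y (by simp [hy])]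
      simp only [dg, pk, Nat.shiftRight_eq_div_pow]
      rw [show 2 ^ (4 * (i + 1)) = 16 * 2 ^ (4 * i) by ring, ← Nat.div_div_eq_div_mul]
      congr 2; omega

theorem dec_mul (a b : ℕ) : dec (mu3 a b) = dec a * dec b := by
  have h : ∀ i, dg (mu3 a b) i = _ := dg_pk _ (by
    have : ∀ n, n % 11 < 16 := fun n => by omega
    simp [re3, im3, this])
  have h11 : (10 : ZMod 11) = -1 := by decide
  ext i j <;> fin_cases i <;> fin_cases j <;>
    simp [dec, h, mul_apply, Fin.sum_univ_three, re3, im3, h11]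

theorem dec_one : dec on3 = 1 := by decide +kernel

abbrev SU11 : Type := Cfsg.SU 3 F121 11
abbrev PSU11 : Type := Cfsg.PSU 3 F121 11

theorem frob : ∀ x : F121, star x = x ^ 11 := by decide +kernel
theorem isFrob : Cl.Uni.IsFrob F121 11 := ⟨inferInstance, by rw [Nat.card_eq_fintype_card, card_F]; norm_num, frob⟩

def VS (a : ℕ) (g : SU11) : Prop := g.1.1 = dec a

theorem cdS : Cd VS mu3 on3 :=
  ⟨dec_one.symm, fun h1 h2 => by rw [VS, dec_mul, ← h1, ← h2]; rfl, fun h1 h2 =>
    Subtype.ext (Subtype.ext (Eq.trans h1 (Eq.symm h2)))⟩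

theorem exists_VS {a : ℕ} (h1 : (dec a).det = 1) (h2 : (dec a)ᴴ * dec a = 1) : ∃ g, VS a g := by
  refine ⟨⟨⟨dec a, h1⟩, fun u v => ?_⟩, rfl⟩
  have k : ∀ u v : Fin 3 → F121, Cfsg.hermForm 3 F121 11 u v = star v ⬝ᵥ u := fun u v => by
    simp [Cfsg.hermForm, dotProduct, frob, mul_comm]
  change Cfsg.hermForm 3 F121 11 (dec a *ᵥ u) (dec a *ᵥ v) = _
  rw [k, k, star_mulVec, dotProduct_mulVec, vecMul_vecMul, h2, vecMul_one]

theorem mk_ne {a b : ℕ} {g h : SU11} (h1 : VS a g) (h2 : VS b h) (n : dec (mu3 a b) ≠ dec (mu3 b a)) :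
    (g : PSU11) ≠ 1 := fun e => n (by
  have := mem_center_iff.1 ((QuotientGroup.eq_one_iff g).1 e) h
  exact (cdS.vm h1 h2).symm.trans ((congrArg (fun x : SU11 => x.1.1) this.symm).trans (cdS.vm h2 h1)))

def sA : ℕ := 0x113101857a9102166
def sB : ℕ := 0x13792347536995848
def sC : ℕ := 0x10000004171007a71
def sH : ℕ := 0x68000000599a000759
def sW : ℕ := 0xa0000000759006904

theorem relS : RelN mu3 on3 sA sB sC sH sW := by decide +kernel

theorem card_psu : Nat.card PSU11 = 70915680 := by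
  have := isFrob.card_psu (n := 3) (by norm_num)
  rw [show Nat.gcd 3 (11 + 1) = 3 by norm_num, show 11 ^ (3 * (3 - 1) / 2) * ∏ i ∈ Finset.range 3,
    (if Even i then 11 ^ (i + 1) + 1 else 11 ^ (i + 1) - 1) = 2552964480 by decide +kernel] at this
  change 3 * (12 * Nat.card PSU11) = _ at this
  omega

theorem exists_psu : ∃ a b c h w : PSU11, Rel a b c h w ∧ h ^ 40 = 1 ∧ closure {a, b, c, h, w} = ⊤ := by
  have := isFrob.simple_psu (n := 3) (by norm_num) (by norm_num)
  obtain ⟨a, ha⟩ := exists_VS (a := sA) (by rw [det_fin_three]; decide +kernel) (by decide +kernel)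
  obtain ⟨b, hb⟩ := exists_VS (a := sB) (by rw [det_fin_three]; decide +kernel) (by decide +kernel)
  obtain ⟨c, hc⟩ := exists_VS (a := sC) (by rw [det_fin_three]; decide +kernel) (by decide +kernel)
  obtain ⟨h, hh⟩ := exists_VS (a := sH) (by rw [det_fin_three]; decide +kernel) (by decide +kernel)
  obtain ⟨w, hw⟩ := exists_VS (a := sW) (by rw [det_fin_three]; decide +kernel) (by decide +kernel)
  have R := (cdS.rel ha hb hc hh hw relS).map (QuotientGroup.mk' (center SU11))
  have h40 : (h : PSU11) ^ 40 = 1 := by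
    rw [← QuotientGroup.mk_pow, QuotientGroup.eq_one_iff, mem_center_iff]
    intro g
    have e : (h ^ 40).1.1 = scalar (Fin 3) (dec (pwN mu3 on3 sH 40) 0 0) :=
      (cdS.vp hh 40).trans (by decide +kernel)
    refine Subtype.ext (Subtype.ext ?_)
    change g.1.1 * (h ^ 40).1.1 = (h ^ 40).1.1 * g.1.1
    rw [e]; exact (scalar_commute _ (fun _ => Commute.all _ _) _).eq.symm
  refine ⟨_, _, _, _, _, R, h40, ?_⟩
  by_contra n
  set K := closure {QuotientGroup.mk' (center SU11) a, QuotientGroup.mk' (center SU11) b,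
    QuotientGroup.mk' (center SU11) c, QuotientGroup.mk' (center SU11) h, QuotientGroup.mk' (center SU11) w}
  have m1 : (a : PSU11) ∈ K := subset_closure (by simp)
  have m2 : (b : PSU11) ∈ K := subset_closure (by simp)
  have m3 : (c : PSU11) ∈ K := subset_closure (by simp)
  have m4 : (h : PSU11) ∈ K := subset_closure (by simp)
  have m5 : (w : PSU11) ∈ K := subset_closure (by simp)
  have d1 := R.dvd_card (mk_ne hc hw (by decide +kernel)) m1 m2 m3
  have d2 : orderOf (h : PSU11) = 40 := orderOf_eq_of_pow_and_pow_div_prime (by norm_num) h40 fun p hp hd => by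
    rw [← QuotientGroup.mk_pow]
    have : p = 2 ∨ p = 5 := by
      have := (show ∀ p ∈ Nat.primeFactors 40, p = 2 ∨ p = 5 by decide +kernel) p
      exact this (Nat.mem_primeFactors.2 ⟨hp, hd, by norm_num⟩)
    rcases this with rfl | rfl <;> exact mk_ne (cdS.vp hh _) ha (by decide +kernel)
  have hg := cdS.vm (cdS.vm (cdS.vm hw ha) hb) hc
  have d3 : orderOf ((w * a * b * c : SU11) : PSU11) = 37 := by
    have : Fact (Nat.Prime 37) := ⟨by norm_num⟩
    refine orderOf_eq_prime ?_ (mk_ne hg ha (by decide +kernel))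
    rw [← QuotientGroup.mk_pow, cdS.eq (by decide +kernel) (cdS.vp hg 37) cdS.v1]; rfl
  have d4 : 1331 * (40 * 37) ∣ Nat.card K := Nat.Coprime.mul_dvd_of_dvd_of_dvd (by norm_num) d1
    (Nat.Coprime.mul_dvd_of_dvd_of_dvd (by norm_num) (d2 ▸ GT.orderOf_dvd_card_of_mem m4)
      (d3 ▸ GT.orderOf_dvd_card_of_mem (mul_mem (mul_mem (mul_mem m5 m1) m2) m3)))
  have := Cl.two_mul_card_dvd_factorial_index (fun k => mk_ne (cdS.vm (cdS.vm (cdS.vm hw hc) hw) (cdS.vp hc 10)) ha (by decide +kernel) (by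
    have := k.is_comm.comm (w : PSU11) c
    simp only [QuotientGroup.mk_mul, QuotientGroup.mk_pow]
    rw [this, mul_assoc (c : PSU11)]
    exact (congrArg (fun x => (c : PSU11) * x * (c : PSU11) ^ 10) R.ww).trans (by
      rw [mul_one, ← pow_succ']; exact R.c11))) n
  have h1 := K.card_mul_index
  obtain ⟨m, hm⟩ := d4
  rw [card_psu] at this h1
  have h2 : 37 ≤ K.index := ((by norm_num : Nat.Prime 37).dvd_factorial).1 (Nat.dvd_trans (by norm_num) this)
  have h3 : m ≠ 0 := by rintro rfl; have := Nat.card_pos (α := K); omega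
  rw [hm] at h1
  nlinarith [Nat.pos_of_ne_zero h3]

/-- A group generated by a non-trivial solution of the relations is `PSU₃(11)`. -/
theorem iso_psu {G : Type*} [Group G] [Finite G] {a b c h w : G} (R : Rel a b c h w) (h40 : h ^ 40 = 1) (n : a ≠ 1) :
    Nonempty ((closure {a, b, c, h, w} : Subgroup G) ≃* PSU11) := by
  have := isFrob.simple_psu (n := 3) (by norm_num) (by norm_num)
  obtain ⟨a', b', c', h', w', R', k40, hK⟩ := exists_psu
  have R2 : Rel (a, a') (b, b') (c, c') (h, h') (w, w') := by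
    obtain ⟨h1, h2, h3, h4, h5, h6, h7, h8, h9, h10, h11, h12⟩ := R
    obtain ⟨k1, k2, k3, k4, k5, k6, k7, k8, k9, k10, k11, k12⟩ := R'
    exact ⟨Prod.ext h1 k1, Prod.ext h2 k2, Prod.ext h3 k3, Prod.ext h4 k4, Prod.ext h5 k5, Prod.ext h6 k6, Prod.ext h7 k7,
      Prod.ext h8 k8, Prod.ext h9 k9, Prod.ext h10 k10, Prod.ext h11 k11, fun r hr => Prod.ext (h12 r hr) (k12 r hr)⟩
  have hc := R2.card_le (Prod.ext h40 k40)
  set L := closure {(a, a'), (b, b'), (c, c'), (h, h'), (w, w')}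
  have e1 : L.map (MonoidHom.fst _ _) = closure {a, b, c, h, w} := by
    simp [L, MonoidHom.map_closure, Set.image_insert_eq]
  have e2 : L.map (MonoidHom.snd _ _) = ⊤ := by
    simpa [L, MonoidHom.map_closure, Set.image_insert_eq] using hK
  have s2 : Function.Surjective ((MonoidHom.snd G PSU11).comp L.subtype) := by
    rwa [← MonoidHom.range_eq_top, MonoidHom.range_comp, range_subtype]
  have b2 : Function.Bijective ((MonoidHom.snd G PSU11).comp L.subtype) :=
    (Nat.bijective_iff_surjective_and_card _).2 ⟨s2, le_antisymm (card_psu ▸ hc) (Nat.card_le_card_of_surjective _ s2)⟩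
  let e := MulEquiv.ofBijective _ b2
  have : IsSimpleGroup L := e.isSimpleGroup
  have i1 : Function.Injective ((MonoidHom.fst G PSU11).comp L.subtype) :=
    (MonoidHom.ker_eq_bot_iff _).1 ((MonoidHom.normal_ker _).eq_bot_or_eq_top.resolve_right fun k =>
      n (k.ge (mem_top (⟨(a, a'), subset_closure (by simp)⟩ : L))))
  exact ⟨((MulEquiv.subgroupCongr (by rw [MonoidHom.range_comp, range_subtype, e1])).symm.trans
    (MonoidHom.ofInjective i1).symm).trans e⟩

end Cfsg.Agent.J4V
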