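import Cfsg.Agent.J4U.A

/-!
# Groups of type `J₄`: a subgroup of order `|U₃(11):2|` is maximal
-/

set_option autoImplicit false
set_option linter.unusedSectionVars false

namespace Cfsg.Agent.J4V

open Cfsg.Agent.J4 Cfsg.Agent.J4U Cfsg.Agent.M24 Cfsg.Agent.TT Cfsg.Agent.GT Subgroup MulAction
open scoped Pointwise

theorem ok11 {G : Type*} [Group G] [Finite G] [IsSimpleGroup G] (hG : ¬ IsMulCommutative G)
    (hJ : IsOfJankoFourType G) {X K : Subgroup G} (hK : X ≤ K) (h : Nat.card X % 1331 = 0) :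
    okM (Nat.card X) (Nat.card K) 1331 240 1 := by
  obtain ⟨z, hJ⟩ := hJ
  obtain ⟨ω, s, Λ, M, y, g, T, π, κ, J, hg⟩ := exists_jg hG hJ
  have := M.finH
  obtain ⟨x, v, D⟩ := J.exists_xd
  obtain ⟨Q, hQ⟩ := exists_syl (p := 11) (by norm_num) X
  obtain ⟨n, rfl⟩ := J.conj_U hg D h hQ
  have h1 := conj_le_iff.1 hQ.le
  have h2 : cj[n⁻¹] X ≤ cj[n⁻¹] K := conj_le_conj_iff.2 hK
  obtain ⟨b, b1, b2, b3⟩ := J.sv11 hg D h1
  obtain ⟨c, c1, c2, c3⟩ := J.sv11 hg D (h1.trans h2)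
  rw [card_conj] at b3 c3
  exact ⟨b, b1, ⟨Nat.mod_one _, b3⟩, c, c1, Nat.mod_eq_zero_of_dvd (Nat.dvd_of_mul_dvd_mul_left (by norm_num : 0 < 1331)
    (by rw [← b2, ← c2]; exact card_dvd_of_le (inf_le_inf_right _ h2))), c3⟩

/-- the local condition at a prime whose Sylow normalizer is maximal -/
def okP (m p e : ℕ) : Prop := m % p = 0 → ∃ c ∈ dv e, c ≠ e ∧ sv m p (p * c)
instance instDecOkP (m p e : ℕ) : Decidable (okP m p e) := by unfold okP; infer_instance

theorem okP_of {G : Type*} [Group G] [Finite G] (F : JF G) {p e : ℕ} (ht : (p, e) ∈ lBig) (hp : p.Prime)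
    (h2 : ¬ p * p ∣ 86775571046077562880) (he : 0 < e)
    (hc : ∀ U : Sylow p G, IsCoatom (normalizer ((U : Subgroup G) : Set G))) {K : Subgroup G} (hK : K ≠ ⊤)
    (hk : Nat.card K ≠ p * e) : okP (Nat.card K) p e := fun h => by
  obtain ⟨x, hx, o⟩ := exists_mem_orderOf_eq hp (Nat.dvd_of_mod_eq_zero h)
  have n := (F.big _ ht x o).2
  rw [← F.card] at h2
  obtain ⟨c, c1, c2, c3⟩ := sv_zp hp h2 hx o n
  refine ⟨c, mem_dv he c1, fun k => ?_, c3⟩
  subst k
  have h3 : N[zpowers x] ≤ K := by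
    have := eq_of_le_of_card_ge (inf_le_right : K ⊓ N[zpowers x] ≤ _) (by rw [c2]; exact n.le)
    exact this ▸ inf_le_left
  obtain ⟨U, hU⟩ := exists_sylow_of_syl_top hp (syl_zp hp (mem_top x) o (by rwa [card_top]))
  have h4 := hc U
  rw [hU] at h4
  rcases h3.eq_or_lt with k | k
  · exact hk (k ▸ n)
  · exact hK (h4.2 K k)

set_option synthInstance.maxSize 1000 in
theorem sieveU : ∀ a < 22, ∀ b ∈ l64, ∀ c ∈ l32, 2 ^ a * (b * c) % 141831360 = 0 → okB (2 ^ a * (b * c)) →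
    okM 141831360 (2 ^ a * (b * c)) 37 12 1 → okM 141831360 (2 ^ a * (b * c)) 1331 240 1 →
    okP (2 ^ a * (b * c)) 37 12 → okP (2 ^ a * (b * c)) 43 14 → 2 ^ a * (b * c) = 141831360 := by decide +kernel

/-- A subgroup of order `2·|U₃(11)|` is maximal, granted that the normalizers of the Sylow `37`- and `43`-subgroups
are. -/
theorem coatom_u {G : Type*} [Group G] [Finite G] [IsSimpleGroup G] (hG : ¬ IsMulCommutative G)
    (hJ : IsOfJankoFourType G) (h37 : ∀ U : Sylow 37 G, IsCoatom (normalizer ((U : Subgroup G) : Set G)))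
    (h43 : ∀ U : Sylow 43 G, IsCoatom (normalizer ((U : Subgroup G) : Set G))) {X : Subgroup G}
    (hX : Nat.card X = 141831360) : IsCoatom X := by
  have F := jf_of_type hG hJ
  refine coatom_of (by rw [hX, F.card]; norm_num) fun K hK => ?_
  by_cases k : K = ⊤
  · exact .inr (by rw [k, card_top])
  have d : 141831360 ∣ Nat.card K := hX ▸ card_dvd_of_le hK
  obtain ⟨a, ha, b, hb, c, hc, e⟩ := exists_fac (F.card ▸ card_subgroup_dvd_card K)
  obtain ⟨x, hx, o⟩ := exists_mem_orderOf_eq (p := 37) (H := X) (by norm_num) (by rw [hX]; norm_num)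
  have h1 := okM_of (f := 1) (by norm_num) (by rw [F.card]; norm_num) hK hx o (F.big (37, 12) (by decide) x o).2
    (by rw [mul_one, ← o]; exact orderOf_dvd_card_of_mem ⟨hx, le_normalizer (mem_zpowers x)⟩)
  have h2 := ok11 hG hJ hK (by rw [hX])
  have h3 := okP_of F (p := 37) (e := 12) (by decide) (by norm_num) (by norm_num) (by norm_num) h37 k
    (fun e => by rw [e] at d; norm_num at d)
  have h4 := okP_of F (p := 43) (e := 14) (by decide) (by norm_num) (by norm_num) (by norm_num) h43 k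
    (fun e => by rw [e] at d; norm_num at d)
  have h5 := F.okB K
  rw [hX] at h1 h2 ⊢
  rw [e] at h1 h2 h3 h4 h5 d ⊢
  exact .inl (sieveU a ha b hb c hc (Nat.mod_eq_zero_of_dvd d) h5 h1 h2 h3 h4)

end Cfsg.Agent.J4V
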